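import Mathlib
import Cfsg.Agent.SteinbergSL.Symbol
import Cfsg.Agent.SL2.Basic

/-!
Steinberg relations of rank one: over a finite field they present `SL₂`.
-/

set_option autoImplicit false

namespace CfsgLib.Classical.Linear

/-- A generating system with the rank one Steinberg relations. -/
structure RankOneSys (K G : Type*) [Field K] [Group G] where
  x : K → G
  y : K → G
  addx : ∀ a b : K, x a * x b = x (a + b)
  addy : ∀ a b : K, y a * y b = y (a + b)
  braid : ∀ t : K, t ≠ 0 → ∀ a : K,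
    SemiconjBy (x t * y (-t⁻¹) * x t) (x a) (y (-(a / t ^ 2)))
  gen : ∀ H : Subgroup G, (∀ a, x a ∈ H) → (∀ a, y a ∈ H) → H = ⊤

namespace RankOneSys

variable {K G : Type*} [Field K] [Group G] (S : RankOneSys K G)

theorem x_zero : S.x 0 = 1 := by simpa using S.addx 0 0

theorem y_zero : S.y 0 = 1 := by simpa using S.addy 0 0

theorem x_inv (a : K) : (S.x a)⁻¹ = S.x (-a) :=
  inv_eq_of_mul_eq_one_right (by rw [S.addx, add_neg_cancel, S.x_zero])

theorem y_inv (a : K) : (S.y a)⁻¹ = S.y (-a) :=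
  inv_eq_of_mul_eq_one_right (by rw [S.addy, add_neg_cancel, S.y_zero])

/-- The Weyl element. -/
def w (t : K) : G := S.x t * S.y (-t⁻¹) * S.x t

/-- The torus element. -/
def h (t : K) : G := S.w t * S.w (-1)

theorem w_inv (t : K) : (S.w t)⁻¹ = S.w (-t) := by
  simp [w, S.x_inv, S.y_inv, mul_assoc, inv_neg]

theorem h_inv (t : K) : (S.h t)⁻¹ = S.w 1 * S.w (-t) := by
  rw [h, mul_inv_rev, S.w_inv, S.w_inv, neg_neg]

theorem h_one : S.h 1 = 1 := by rw [h, ← S.w_inv, mul_inv_cancel]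

theorem w_x {t : K} (ht : t ≠ 0) (a : K) :
    SemiconjBy (S.w t) (S.x a) (S.y (-(a / t ^ 2))) := S.braid t ht a

theorem w_y {t : K} (ht : t ≠ 0) (a : K) :
    SemiconjBy (S.w t) (S.y a) (S.x (-(t ^ 2 * a))) := by
  have := (S.w_x (neg_ne_zero.2 ht) (-(t ^ 2 * a))).inv_symm_left
  rw [S.w_inv, neg_neg, show -(-(t ^ 2 * a) / (-t) ^ 2) = a by field_simp] at this
  exact this

theorem w_eq_opp {t : K} (ht : t ≠ 0) : S.w t = S.y (-t⁻¹) * S.x t * S.y (-t⁻¹) := by
  have A := S.w_x ht t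
  have B := S.w_y ht (-t⁻¹)
  rw [show -(t / t ^ 2) = -t⁻¹ by field_simp] at A
  rw [show -(t ^ 2 * -t⁻¹) = t by field_simp] at B
  exact mul_right_cancel ((A.mul_right B).mul_right A : _ = _)

/-- Steinberg's identity. -/
theorem w_identity {u v : K} (hu : u ≠ 0) (hv : v ≠ 0) (huv : u + v = 1) :
    S.w u * S.w (-1) * S.w v = S.w (u * v) := by
  have hv' : -v ≠ 0 := neg_ne_zero.2 hv
  have huv' : u * v ≠ 0 := mul_ne_zero hu hv
  have ey : S.y (-u⁻¹) = S.y (-(u * v)⁻¹) * S.y v⁻¹ := by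
    rw [S.addy]; congr 1; field_simp; linear_combination -huv
  have ey1 : S.y 1 = S.y v⁻¹ * S.y (-(u / v)) := by
    rw [S.addy]; congr 1; field_simp; linear_combination huv
  have hN : S.w (-v) = S.y v⁻¹ * S.x (-v) * S.y v⁻¹ := by
    rw [S.w_eq_opp hv']; simp [inv_neg]
  calc S.w u * S.w (-1) * S.w v
      = S.x u * S.y (-u⁻¹) * (S.x u * S.x (-1)) * S.y 1 *
          (S.x (-1) * S.x v) * S.y (-v⁻¹) * S.x v := by
        simp [w, mul_assoc, inv_neg]
    _ = S.x u * S.y (-(u * v)⁻¹) * S.w (-v) * S.y (-(u / v)) *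
          S.x (-u) * S.y (-v⁻¹) * S.x v := by
        have e1 : u + -1 = -v := by linear_combination huv
        have e2 : -1 + v = -u := by linear_combination huv
        rw [S.addx, S.addx, e1, e2, ey, ey1, hN]
        simp only [mul_assoc]
    _ = S.x u * S.y (-(u * v)⁻¹) * S.x (u * v) * S.y (u / v ^ 2) *
          S.x v * (S.w (-v) * S.x v) := by
        have A := (S.w_y hv' (-(u / v))).eq
        have B := (S.w_x hv' (-u)).eq
        have C := (S.w_y hv' (-v⁻¹)).eq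
        have e1 : -((-v) ^ 2 * -(u / v)) = u * v := by field_simp
        have e2 : -(-u / (-v) ^ 2) = u / v ^ 2 := by field_simp
        have e3 : -((-v) ^ 2 * -v⁻¹) = v := by field_simp
        rw [e1] at A; rw [e2] at B; rw [e3] at C
        simp only [mul_assoc]
        rw [← mul_assoc (S.w (-v)) (S.y (-(u / v))), A]
        simp only [mul_assoc]
        rw [← mul_assoc (S.w (-v)) (S.x (-u)), B]
        simp only [mul_assoc]
        rw [← mul_assoc (S.w (-v)) (S.y (-v⁻¹)), C]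
        simp only [mul_assoc]
    _ = S.x u * S.y (-(u * v)⁻¹) * S.x (u * v) * S.y (u / v ^ 2) * S.y v⁻¹ := by
        simp only [w, mul_assoc]
        rw [S.addx, neg_add_cancel, S.x_zero, mul_one, ← mul_assoc (S.x v),
          S.addx, add_neg_cancel, S.x_zero, one_mul]
        simp [inv_neg]
    _ = S.x (u ^ 2) * (S.w (u * v) * S.y (v ^ 2)⁻¹) := by
        have e1 : u = u ^ 2 + u * v := by linear_combination (-u) * huv
        have e2 : u / v ^ 2 + v⁻¹ = (v ^ 2)⁻¹ := by field_simp; linear_combination huv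
        rw [mul_assoc _ (S.y (u / v ^ 2)), S.addy, e2]
        conv_lhs => rw [congrArg S.x e1, ← S.addx]
        simp only [w, mul_assoc]
    _ = S.w (u * v) := by
        have A := (S.w_y huv' (v ^ 2)⁻¹).eq
        have e : -((u * v) ^ 2 * (v ^ 2)⁻¹) = -u ^ 2 := by field_simp
        rw [e] at A
        rw [A, ← mul_assoc, S.addx, add_neg_cancel, S.x_zero, one_mul]

theorem h_mul_of_add_eq_one {u v : K} (hu : u ≠ 0) (hv : v ≠ 0) (huv : u + v = 1) :
    S.h u * S.h v = S.h (u * v) := by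
  simp only [h]
  rw [← S.w_identity hu hv huv]
  simp only [mul_assoc]

theorem h_x {t : K} (ht : t ≠ 0) (a : K) : SemiconjBy (S.h t) (S.x a) (S.x (t ^ 2 * a)) := by
  have := (S.w_y ht _).mul_left (S.w_x (by simp : (-1 : K) ≠ 0) a)
  rwa [show -(t ^ 2 * -(a / (-1 : K) ^ 2)) = t ^ 2 * a by ring] at this

theorem h_y {t : K} (ht : t ≠ 0) (a : K) : SemiconjBy (S.h t) (S.y a) (S.y (a / t ^ 2)) := by
  have := (S.w_x ht _).mul_left (S.w_y (by simp : (-1 : K) ≠ 0) a)
  rwa [show -(-((-1 : K) ^ 2 * a) / t ^ 2) = a / t ^ 2 by ring] at this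

theorem h_w {t s : K} (ht : t ≠ 0) : SemiconjBy (S.h t) (S.w s) (S.w (t ^ 2 * s)) := by
  have := ((S.h_x ht s).mul_right (S.h_y ht (-s⁻¹))).mul_right (S.h_x ht s)
  rw [show -s⁻¹ / t ^ 2 = -(t ^ 2 * s)⁻¹ by rw [mul_inv]; field_simp] at this
  exact this

theorem w_w {t s : K} (ht : t ≠ 0) (hs : s ≠ 0) :
    SemiconjBy (S.w t) (S.w s) (S.w (t ^ 2 / s)) := by
  have := ((S.w_x ht s).mul_right (S.w_y ht (-s⁻¹))).mul_right (S.w_x ht s)
  have hts : t ^ 2 / s ≠ 0 := div_ne_zero (pow_ne_zero 2 ht) hs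
  rw [show -(t ^ 2 * -s⁻¹) = t ^ 2 / s by field_simp,
    show -(s / t ^ 2) = -(t ^ 2 / s)⁻¹ by rw [inv_div], ← S.w_eq_opp hts] at this
  exact this

theorem h_h {t u : K} (ht : t ≠ 0) :
    SemiconjBy (S.h t) (S.h u) (S.h (t ^ 2 * u) * (S.h (t ^ 2))⁻¹) := by
  have := (S.h_w ht (s := u)).mul_right (S.h_w ht (s := -1))
  rw [show S.w (t ^ 2 * u) * S.w (t ^ 2 * -1) = S.h (t ^ 2 * u) * (S.h (t ^ 2))⁻¹ by
    rw [S.h_inv, h, mul_neg, mul_one, ← S.w_inv 1]; group] at this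
  exact this

theorem cocycle_mem_center {t u : K} (ht : t ≠ 0) (hu : u ≠ 0) :
    S.h t * S.h u * (S.h (t * u))⁻¹ ∈ Subgroup.center G := by
  have htu : t * u ≠ 0 := mul_ne_zero ht hu
  have hx : ∀ a, SemiconjBy (S.h t * S.h u * (S.h (t * u))⁻¹) (S.x a) (S.x a) := by
    intro a
    have h1 := (S.h_x htu (a / (t * u) ^ 2)).inv_symm_left
    rw [show (t * u) ^ 2 * (a / (t * u) ^ 2) = a by field_simp] at h1
    have h2 := ((S.h_x ht _).mul_left (S.h_x hu _)).mul_left h1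
    rwa [show t ^ 2 * (u ^ 2 * (a / (t * u) ^ 2)) = a by field_simp] at h2
  have hy : ∀ a, SemiconjBy (S.h t * S.h u * (S.h (t * u))⁻¹) (S.y a) (S.y a) := by
    intro a
    have h1 := (S.h_y htu (a * (t * u) ^ 2)).inv_symm_left
    rw [show a * (t * u) ^ 2 / (t * u) ^ 2 = a by field_simp] at h1
    have h2 := ((S.h_y ht _).mul_left (S.h_y hu _)).mul_left h1
    rwa [show a * (t * u) ^ 2 / u ^ 2 / t ^ 2 = a by field_simp] at h2
  have := S.gen (Subgroup.centralizer {S.h t * S.h u * (S.h (t * u))⁻¹})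
    (fun a => Subgroup.mem_centralizer_singleton_iff.2 (hx a).eq.symm)
    (fun a => Subgroup.mem_centralizer_singleton_iff.2 (hy a).eq.symm)
  exact Subgroup.mem_center_iff.2 fun z =>
    Subgroup.mem_centralizer_singleton_iff.1 (this ▸ Subgroup.mem_top z)

variable [Finite K]

theorem h_commute {t u : K} (ht : t ≠ 0) (hu : u ≠ 0) : Commute (S.h t) (S.h u) := by
  obtain ⟨g, hg⟩ := IsCyclic.exists_monoid_generator (α := Kˣ)
  have step : ∀ z : G, Commute z (S.h g) → ∀ n : ℕ, Commute z (S.h ((g : K) ^ n)) := by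
    intro z hz n
    induction n with
    | zero => rw [pow_zero, S.h_one]; exact Commute.one_right z
    | succ n ih =>
      have hc := S.cocycle_mem_center (pow_ne_zero n g.ne_zero) g.ne_zero
      rw [← pow_succ] at hc
      have e : S.h ((g : K) ^ (n + 1)) =
          (S.h ((g : K) ^ n) * S.h g * (S.h ((g : K) ^ (n + 1)))⁻¹)⁻¹ *
            (S.h ((g : K) ^ n) * S.h g) := by group
      rw [e]
      exact (show Commute z _ from Subgroup.mem_center_iff.1 hc z).inv_right.mul_right (ih.mul_right hz)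
  obtain ⟨m, hm⟩ := hg (Units.mk0 t ht)
  obtain ⟨n, hn⟩ := hg (Units.mk0 u hu)
  have em : (g : K) ^ m = t := by
    have := congrArg Units.val hm
    simpa using this
  have en : (g : K) ^ n = u := by
    have := congrArg Units.val hn
    simpa using this
  rw [← em, ← en]
  exact step _ (step _ (Commute.refl _) m).symm n

theorem h_sq_mul {t u : K} (ht : t ≠ 0) (hu : u ≠ 0) :
    S.h (t ^ 2 * u) = S.h (t ^ 2) * S.h u := by
  have h1 := (S.h_h ht (u := u)).eq
  rw [(S.h_commute ht hu).eq] at h1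
  have h2 := mul_right_cancel h1
  rw [eq_mul_inv_iff_mul_eq] at h2
  rw [← h2, (S.h_commute hu (pow_ne_zero 2 ht)).eq]

theorem h_mul {t u : K} (ht : t ≠ 0) (hu : u ≠ 0) : S.h t * S.h u = S.h (t * u) := by
  classical
  haveI : Fintype K := Fintype.ofFinite K
  by_cases hts : IsSquare t
  · obtain ⟨r, rfl⟩ := hts
    have hr : r ≠ 0 := left_ne_zero_of_mul ht
    rw [← pow_two, S.h_sq_mul hr hu]
  by_cases hus : IsSquare u
  · obtain ⟨r, rfl⟩ := hus
    have hr : r ≠ 0 := left_ne_zero_of_mul hu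
    rw [mul_comm t (r * r), ← pow_two, S.h_sq_mul hr ht, (S.h_commute ht (pow_ne_zero 2 hr)).eq]
  have h2 : ringChar K ≠ 2 := fun h => hts (FiniteField.isSquare_of_char_two h t)
  obtain ⟨a, b, ha, hb, hab⟩ := CfsgLib.SteinbergSL.exists_not_isSquare_one_sub (F := K) h2
  have hns : ∀ c : Kˣ, ¬ IsSquare c → ¬ IsSquare (c : K) := by
    rintro c hc ⟨r, hr⟩
    exact hc ⟨Units.mk0 r (fun h0 => c.ne_zero (by rw [hr, h0, mul_zero])), Units.ext hr⟩
  have hquot : ∀ {c d : K}, c ≠ 0 → ¬ IsSquare c → ¬ IsSquare d →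
      ∃ r : K, r ^ 2 * c = d := by
    intro c d hc hcs hds
    have hd : d ≠ 0 := fun h => hds (h ▸ IsSquare.zero)
    have hchar : quadraticChar K (d / c) = 1 := by
      have h1 : quadraticChar K c = -1 := quadraticChar_neg_one_iff_not_isSquare.2 hcs
      have h3 : quadraticChar K d = -1 := quadraticChar_neg_one_iff_not_isSquare.2 hds
      have h4 : quadraticChar K (d / c) * quadraticChar K c = quadraticChar K d := by
        rw [← map_mul, div_mul_cancel₀ d hc]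
      rw [h1, h3, mul_neg, mul_one, neg_inj] at h4
      exact h4
    obtain ⟨r, hr⟩ := (quadraticChar_one_iff_isSquare (div_ne_zero hd hc)).1 hchar
    exact ⟨r, by rw [pow_two, ← hr, div_mul_cancel₀ d hc]⟩
  have ha0 : (a : K) ≠ 0 := a.ne_zero
  obtain ⟨r, hr⟩ := hquot ha0 (hns a ha) hts
  obtain ⟨s, hs⟩ := hquot ha0 (hns a ha) hus
  obtain ⟨c, hc⟩ := hquot ha0 (hns a ha) (hns b hb)
  have hr0 : r ≠ 0 := fun h => ht (by rw [← hr, h]; ring)
  have hs0 : s ≠ 0 := fun h => hu (by rw [← hs, h]; ring)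
  have hc0 : c ≠ 0 := fun h => b.ne_zero (by rw [← hc, h]; ring)
  -- the square of `h a`
  have haa : S.h a * S.h a = S.h ((a : K) * a) := by
    have h1 := S.h_mul_of_add_eq_one ha0 b.ne_zero hab
    rw [← hc, S.h_sq_mul hc0 ha0, ← mul_assoc, (S.h_commute ha0 (pow_ne_zero 2 hc0)).eq,
      mul_assoc, show (a : K) * (c ^ 2 * a) = c ^ 2 * ((a : K) * a) by ring,
      S.h_sq_mul hc0 (mul_ne_zero ha0 ha0)] at h1
    exact mul_left_cancel h1
  rw [← hr, ← hs, show r ^ 2 * (a : K) * (s ^ 2 * a) = (r * s) ^ 2 * ((a : K) * a) by ring,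
    S.h_sq_mul hr0 ha0, S.h_sq_mul hs0 ha0, S.h_sq_mul (mul_ne_zero hr0 hs0) (mul_ne_zero ha0 ha0),
    ← haa]
  have hrs : S.h ((r * s) ^ 2) = S.h (r ^ 2) * S.h (s ^ 2) := by
    rw [mul_pow, S.h_sq_mul hr0 (pow_ne_zero 2 hs0)]
  rw [hrs]
  rw [mul_assoc, ← mul_assoc (S.h a), (S.h_commute ha0 (pow_ne_zero 2 hs0)).eq]
  group

theorem h_inv_eq {t : K} (ht : t ≠ 0) : (S.h t)⁻¹ = S.h t⁻¹ := by
  refine inv_eq_of_mul_eq_one_right ?_
  rw [S.h_mul ht (inv_ne_zero ht), mul_inv_cancel₀ ht, S.h_one]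

omit [Finite K] in
theorem w_eq_h_mul (t : K) : S.h t * S.w 1 = S.w t := by
  rw [h, mul_assoc, ← S.w_inv 1, inv_mul_cancel, mul_one]

omit [Finite K] in
theorem y_eq {a : K} (ha : a ≠ 0) : S.y a = S.x a⁻¹ * S.w (-a⁻¹) * S.x a⁻¹ := by
  rw [w, inv_neg, neg_neg, inv_inv]
  simp only [mul_assoc]
  rw [S.addx, neg_add_cancel, S.x_zero, mul_one, ← mul_assoc, S.addx, add_neg_cancel, S.x_zero,
    one_mul]

theorem w_one_h {t : K} (ht : t ≠ 0) : S.w 1 * S.h t = S.h t⁻¹ * S.w 1 := by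
  have h1 := ((S.w_w (one_ne_zero (α := K)) ht).mul_right
    (S.w_w one_ne_zero (by simp : (-1 : K) ≠ 0))).eq
  rw [show (1 : K) ^ 2 / t = t⁻¹ by simp, show (1 : K) ^ 2 / -1 = -1 by norm_num] at h1
  exact h1

theorem w_one_w_one : S.w 1 * S.w 1 = S.h (-1) := by
  have h1 : (S.h (-1))⁻¹ = S.w 1 * S.w 1 := by rw [S.h_inv, neg_neg]
  rw [← h1, S.h_inv_eq (by simp), inv_neg, inv_one]

/-- Bruhat normal forms. -/
def Normal (g : G) : Prop :=
  (∃ a t : K, t ≠ 0 ∧ g = S.x a * S.h t) ∨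
    ∃ a t b : K, t ≠ 0 ∧ g = S.x a * S.h t * S.w 1 * S.x b

omit [Finite K] in
theorem normal_one : S.Normal 1 :=
  .inl ⟨0, 1, one_ne_zero, by rw [S.x_zero, S.h_one, one_mul]⟩

omit [Finite K] in
theorem normal_x (c : K) {g : G} (hg : S.Normal g) : S.Normal (S.x c * g) := by
  rcases hg with ⟨a, t, ht, rfl⟩ | ⟨a, t, b, ht, rfl⟩
  · exact .inl ⟨c + a, t, ht, by rw [← mul_assoc, S.addx]⟩
  · exact .inr ⟨c + a, t, b, ht, by simp only [← mul_assoc, S.addx]⟩

theorem normal_h {s : K} (hs : s ≠ 0) {g : G} (hg : S.Normal g) : S.Normal (S.h s * g) := by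
  rcases hg with ⟨a, t, ht, rfl⟩ | ⟨a, t, b, ht, rfl⟩
  · refine .inl ⟨s ^ 2 * a, s * t, mul_ne_zero hs ht, ?_⟩
    rw [← mul_assoc, (S.h_x hs a).eq, mul_assoc, S.h_mul hs ht]
  · refine .inr ⟨s ^ 2 * a, s * t, b, mul_ne_zero hs ht, ?_⟩
    simp only [← mul_assoc]
    rw [(S.h_x hs a).eq, mul_assoc (S.x _) (S.h s) (S.h t), S.h_mul hs ht]

theorem x_mul_h {t : K} (ht : t ≠ 0) (a : K) : S.x a * S.h t = S.h t * S.x (a / t ^ 2) := by
  rw [(S.h_x ht _).eq, show t ^ 2 * (a / t ^ 2) = a by field_simp]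

theorem normal_w_one {g : G} (hg : S.Normal g) : S.Normal (S.w 1 * g) := by
  have key : ∀ (a t : K), t ≠ 0 →
      S.w 1 * (S.x a * S.h t) = S.h t⁻¹ * (S.w 1 * S.x (a / t ^ 2)) := by
    intro a t ht
    rw [S.x_mul_h ht, ← mul_assoc, S.w_one_h ht, mul_assoc]
  rcases hg with ⟨a, t, ht, rfl⟩ | ⟨a, t, b, ht, rfl⟩
  · rw [key a t ht]
    refine S.normal_h (inv_ne_zero ht) (.inr ⟨0, 1, a / t ^ 2, one_ne_zero, ?_⟩)
    rw [S.x_zero, S.h_one, one_mul, one_mul]
  · rw [show S.w 1 * (S.x a * S.h t * S.w 1 * S.x b) =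
      S.w 1 * (S.x a * S.h t) * (S.w 1 * S.x b) by group, key a t ht, mul_assoc]
    refine S.normal_h (inv_ne_zero ht) ?_
    set a' := a / t ^ 2
    by_cases ha : a' = 0
    · rw [ha, S.x_zero, mul_one, ← mul_assoc, S.w_one_w_one]
      exact S.normal_h (by simp) (.inl ⟨b, 1, one_ne_zero, by rw [S.h_one, mul_one]⟩)
    · have e1 : S.w 1 * S.x a' = S.y (-a') * S.w 1 := by
        have := (S.w_x (one_ne_zero (α := K)) a').eq
        rwa [one_pow, div_one] at this
      have hm : (-1 : K) ≠ 0 := by simp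
      rw [e1, mul_assoc, ← mul_assoc (S.w 1), S.w_one_w_one, S.y_eq (neg_ne_zero.2 ha), inv_neg,
        neg_neg, ← S.w_eq_h_mul a'⁻¹]
      simp only [mul_assoc]
      refine S.normal_x _ (S.normal_h (inv_ne_zero ha) ?_)
      refine .inr ⟨0, -1, -a'⁻¹ / (-1) ^ 2 + b, hm, ?_⟩
      have e2 : S.x (-a'⁻¹) * (S.h (-1) * S.x b) = S.h (-1) * S.x (-a'⁻¹ / (-1) ^ 2 + b) := by
        rw [← mul_assoc, S.x_mul_h hm, mul_assoc, S.addx]
      rw [e2, S.x_zero, one_mul, ← mul_assoc, S.w_one_h hm, inv_neg, inv_one]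

theorem normal_all (g : G) : S.Normal g := by
  have hy : ∀ c g, S.Normal g → S.Normal (S.y c * g) := by
    intro c g hg
    by_cases hc : c = 0
    · rwa [hc, S.y_zero, one_mul]
    · rw [S.y_eq hc, ← S.w_eq_h_mul]
      simp only [mul_assoc]
      exact S.normal_x _ (S.normal_h (by simp [hc]) (S.normal_w_one (S.normal_x _ hg)))
  let H : Subgroup G :=
    { carrier := {z | (∀ g, S.Normal g → S.Normal (z * g)) ∧ ∀ g, S.Normal g → S.Normal (z⁻¹ * g)}
      one_mem' := ⟨fun g hg => by rwa [one_mul], fun g hg => by rwa [inv_one, one_mul]⟩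
      mul_mem' := fun {a b} ha hb => ⟨fun g hg => by rw [mul_assoc]; exact ha.1 _ (hb.1 _ hg),
        fun g hg => by rw [mul_inv_rev, mul_assoc]; exact hb.2 _ (ha.2 _ hg)⟩
      inv_mem' := fun {a} ha => ⟨ha.2, fun g hg => by rw [inv_inv]; exact ha.1 g hg⟩ }
  have hH := S.gen H
    (fun a => ⟨fun g hg => S.normal_x a hg, fun g hg => by rw [S.x_inv]; exact S.normal_x _ hg⟩)
    (fun a => ⟨fun g hg => hy a g hg, fun g hg => by rw [S.y_inv]; exact hy _ g hg⟩)
  have hg : g ∈ H := hH ▸ Subgroup.mem_top g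
  simpa using hg.1 1 S.normal_one

/-- A homomorphism to `SL₂` compatible with the root elements is injective. -/
theorem injective_of_map (φ : G →* Matrix.SpecialLinearGroup (Fin 2) K)
    (hx : ∀ a, (φ (S.x a) : Matrix (Fin 2) (Fin 2) K) = !![1, a; 0, 1])
    (hy : ∀ a, (φ (S.y a) : Matrix (Fin 2) (Fin 2) K) = !![1, 0; a, 1]) :
    Function.Injective φ := by
  have hw : ∀ t : K, t ≠ 0 → (φ (S.w t) : Matrix (Fin 2) (Fin 2) K) = !![0, t; -t⁻¹, 0] := by
    intro t ht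
    rw [w, map_mul, map_mul, Matrix.SpecialLinearGroup.coe_mul, Matrix.SpecialLinearGroup.coe_mul,
      hx, hy]
    ext i j
    fin_cases i <;> fin_cases j <;> simp [Matrix.mul_apply, Fin.sum_univ_two, ht]
  have hh : ∀ t : K, t ≠ 0 → (φ (S.h t) : Matrix (Fin 2) (Fin 2) K) = !![t, 0; 0, t⁻¹] := by
    intro t ht
    rw [h, map_mul, Matrix.SpecialLinearGroup.coe_mul, hw t ht, hw (-1) (by simp)]
    ext i j
    fin_cases i <;> fin_cases j <;> simp [Matrix.mul_apply, Fin.sum_univ_two]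
  refine (injective_iff_map_eq_one φ).2 fun g hg => ?_
  have hval : (φ g : Matrix (Fin 2) (Fin 2) K) = 1 := by rw [hg]; rfl
  rcases S.normal_all g with ⟨a, t, ht, rfl⟩ | ⟨a, t, b, ht, rfl⟩
  · rw [map_mul, Matrix.SpecialLinearGroup.coe_mul, hx, hh t ht] at hval
    have h00 := congrFun (congrFun hval 0) 0
    have h01 := congrFun (congrFun hval 0) 1
    simp [Matrix.mul_apply, Fin.sum_univ_two] at h00 h01
    subst h00
    simp at h01
    rw [h01, S.x_zero, S.h_one, one_mul]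
  · exfalso
    rw [map_mul, map_mul, map_mul, Matrix.SpecialLinearGroup.coe_mul,
      Matrix.SpecialLinearGroup.coe_mul, Matrix.SpecialLinearGroup.coe_mul, hx, hx, hh t ht,
      hw 1 one_ne_zero] at hval
    have h10 := congrFun (congrFun hval 1) 0
    simp [Matrix.mul_apply, Fin.sum_univ_two] at h10
    exact ht h10

end RankOneSys

end CfsgLib.Classical.Linear
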